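/-
The structure of an outer automorphism group from a diagonal part and a complement.
-/
import Mathlib
import Cfsg.Prelude.Def_KGroupFacts
import Cfsg.Agent.Lib.Classical.PSLAut.Field

set_option autoImplicit false

open scoped Classical

namespace Cfsg.Lib.Classical.OutAut

/-- An outer automorphism group with cyclic diagonal part. -/
theorem out_structure {G : Type*} [Group G] {T C : Type*} [Group T] [CommGroup C] [IsCyclic C] [Finite C]
    (I : Subgroup (MulAut G)) [I.Normal] (hInn : Cfsg.Inn G ≤ I) (D : C →* MulAut G) (hDI : ∀ c, D c ∈ I)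
    (hI : ∀ i ∈ I, ∃ c, i * (D c)⁻¹ ∈ Cfsg.Inn G) (n : ℕ)
    (hD : ∀ c, D c ∈ Cfsg.Inn G ↔ ∃ u : C, u ^ n = c)
    (ψ : T →* MulAut G ⧸ I) (hψ : Function.Bijective ψ) :
    ∃ φ : Cfsg.Out G →* T, Function.Surjective φ ∧ IsCyclic φ.ker ∧ Nat.card φ.ker = (Nat.card C).gcd n := by
  let π : Cfsg.Out G →* MulAut G ⧸ I :=
    QuotientGroup.map (Cfsg.Inn G) I (MonoidHom.id _) (fun x hx => hInn hx)
  let e := MulEquiv.ofBijective ψ hψ
  let φ : Cfsg.Out G →* T := e.symm.toMonoidHom.comp π
  let D' : C →* Cfsg.Out G := (QuotientGroup.mk' (Cfsg.Inn G)).comp D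
  have hπ : ∀ β : MulAut G, π (QuotientGroup.mk β) = QuotientGroup.mk β := fun β => rfl
  have hsurj : Function.Surjective φ := by
    intro t
    obtain ⟨β, hβ⟩ := QuotientGroup.mk_surjective (e t)
    exact ⟨QuotientGroup.mk β, by show e.symm (π _) = t; rw [hπ, hβ, MulEquiv.symm_apply_apply]⟩
  have hker : φ.ker = D'.range := by
    ext x
    obtain ⟨β, rfl⟩ := QuotientGroup.mk_surjective x
    rw [MonoidHom.mem_ker, show φ (QuotientGroup.mk β) = e.symm (π (QuotientGroup.mk β)) from rfl, hπ,
      map_eq_one_iff e.symm e.symm.injective, QuotientGroup.eq_one_iff]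
    constructor
    · intro hβ
      obtain ⟨c, hc⟩ := hI β hβ
      refine ⟨c, ?_⟩
      show (QuotientGroup.mk (D c) : Cfsg.Out G) = QuotientGroup.mk β
      refine (QuotientGroup.eq).2 ?_
      have h1 := (inferInstance : (Cfsg.Inn G).Normal).conj_mem _ hc (D c)⁻¹
      simpa [mul_assoc] using h1
    · rintro ⟨c, hc⟩
      have h1 : (D c)⁻¹ * β ∈ Cfsg.Inn G := QuotientGroup.eq.1 hc
      have h2 := I.mul_mem (hDI c) (hInn h1)
      rwa [mul_inv_cancel_left] at h2
  refine ⟨φ, hsurj, ?_, ?_⟩
  · rw [hker]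
    exact isCyclic_of_surjective D'.rangeRestrict D'.rangeRestrict_surjective
  · rw [hker, ← Subgroup.index_ker,
      show D'.ker = (powMonoidHom n : C →* C).range from Subgroup.ext fun c => by
        rw [MonoidHom.mem_ker, show D' c = QuotientGroup.mk (D c) from rfl, QuotientGroup.eq_one_iff, hD]
        rfl,
      IsCyclic.index_powMonoidHom_range]

/-- The homomorphism from a group of order two to an element of square one. -/
def twoHom {Q : Type*} [Group Q] (a : Q) (ha : a * a = 1) : Multiplicative (ZMod 2) →* Q where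
  toFun x := if x = 1 then 1 else a
  map_one' := if_pos rfl
  map_mul' := by
    have h2 : ∀ x : Multiplicative (ZMod 2), x = 1 ∨ x = Multiplicative.ofAdd 1 := by decide
    have hne : (Multiplicative.ofAdd 1 : Multiplicative (ZMod 2)) ≠ 1 := by decide
    have hsq : (Multiplicative.ofAdd 1 : Multiplicative (ZMod 2)) * Multiplicative.ofAdd 1 = 1 := by decide
    intro x y
    rcases h2 x with rfl | rfl <;> rcases h2 y with rfl | rfl <;> simp [hne, hsq, ha]

theorem aut_cyclic {F : Type*} [Field F] [Fintype F] {p f : ℕ} [Fact p.Prime] (hF : Fintype.card F = p ^ f) :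
    Nonempty ((F ≃+* F) ≃* Multiplicative (ZMod f)) := by
  haveI : CharP F p := by
    obtain ⟨r, hr⟩ := CharP.exists F
    have hrp : r.Prime := CharP.char_is_prime F r
    have : Fact r.Prime := ⟨hrp⟩
    obtain ⟨j, -, hj⟩ := FiniteField.card F r
    have : r ∣ p ^ f := hF ▸ hj ▸ dvd_pow_self r j.ne_zero
    rwa [← (Nat.prime_dvd_prime_iff_eq hrp Fact.out).1 (hrp.dvd_of_dvd_pow this)]
  let _ : Algebra (ZMod p) F := ZMod.algebra F p
  let e : (F ≃+* F) ≃* (F ≃ₐ[ZMod p] F) :=
    { toFun := fun σ => AlgEquiv.ofRingEquiv (f := σ) fun x =>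
        RingHom.congr_fun (RingHom.ext_zmod ((σ : F →+* F).comp (algebraMap (ZMod p) F)) (algebraMap (ZMod p) F)) x
      invFun := fun a => a.toRingEquiv
      left_inv := fun σ => rfl
      right_inv := fun a => rfl
      map_mul' := fun σ τ => rfl }
  have hc : IsCyclic (F ≃+* F) := e.isCyclic.2 inferInstance
  refine ⟨mulEquivOfCyclicCardEq ?_⟩
  rw [Cfsg.Lib.Classical.FinField.card_aut (p := p) hF, Nat.card_eq_of_equiv_fin]
  rcases f with _ | f
  · exact absurd hF (by have := Fintype.one_lt_card (α := F); rw [pow_zero]; omega)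
  · exact Equiv.refl _

/-- Diagonal matrices with one free entry. -/
noncomputable def diagOne {F : Type*} [Field F] {n : ℕ} (i : Fin n) : Fˣ →* GL (Fin n) F :=
  (Units.map (Matrix.diagonalRingHom (Fin n) F).toMonoidHom).comp
    (MulEquiv.piUnits.symm.toMonoidHom.comp (MonoidHom.mulSingle (fun _ : Fin n => Fˣ) i))

theorem coe_diagOne {F : Type*} [Field F] {n : ℕ} (i : Fin n) (u : Fˣ) :
    ((diagOne i u : GL (Fin n) F) : Matrix (Fin n) (Fin n) F) = Matrix.diagonal (Function.update 1 i (u : F)) := by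
  show Matrix.diagonal _ = _
  congr 1
  funext j
  show ((MonoidHom.mulSingle (fun _ : Fin n => Fˣ) i u j : Fˣ) : F) = _
  by_cases hj : j = i
  · subst hj; simp
  · simp [hj]

theorem det_diagOne {F : Type*} [Field F] {n : ℕ} (i : Fin n) (u : Fˣ) :
    Matrix.GeneralLinearGroup.det (diagOne i u) = u := by
  refine Units.ext ?_
  rw [Matrix.GeneralLinearGroup.val_det_apply, coe_diagOne]
  simp [Matrix.det_diagonal, Finset.prod_update_of_mem]

end Cfsg.Lib.Classical.OutAut
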