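/-
The outer automorphism groups of `PSL_n(q)` and `PSU_n(q)`.
-/
import Mathlib
import Cfsg.Agent.Lib.Classical.OutAut.Basic
import Cfsg.Agent.Lib.Classical.PSLAut.Centralizer
import Cfsg.Agent.Lib.Classical.PSLAut.Main
import Cfsg.Agent.Lib.Classical.PSUAut.Field

set_option autoImplicit false

open scoped Classical

namespace Cfsg.Lib.Classical.OutAut

open Matrix
open scoped MatrixGroups

section PSL

open Cfsg.Lib.Classical.PSLAut

variable {F : Type*} [Field F] {n : ℕ}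

set_option quotPrecheck false in
local notation "PSLn" => (Matrix.ProjectiveSpecialLinearGroup (Fin n) F)

theorem psl_conjP_mem_Inn (hn : 2 ≤ n) (g : GL (Fin n) F) :
    conjP g ∈ Cfsg.Inn PSLn ↔ ∃ u : Fˣ, u ^ n = Matrix.GeneralLinearGroup.det g := by
  constructor
  · rintro ⟨k, hk⟩
    obtain ⟨s, rfl⟩ := QuotientGroup.mk_surjective k
    rw [conj_mk_eq] at hk
    have h1 : (Matrix.SpecialLinearGroup.toGL s)⁻¹ * g ∈ (conjP (n := n) (F := F)).ker := by
      rw [MonoidHom.mem_ker, map_mul, map_inv, hk, inv_mul_cancel]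
    rw [conjP_ker hn, Matrix.GeneralLinearGroup.center_eq_range_scalar] at h1
    obtain ⟨c, hc⟩ := h1
    have h2 : Matrix.GeneralLinearGroup.det ((Matrix.SpecialLinearGroup.toGL s)⁻¹ * g) = c ^ n := by
      rw [← hc]; exact det_scalar_gl c
    rw [map_mul, map_inv, show Matrix.GeneralLinearGroup.det (Matrix.SpecialLinearGroup.toGL s) = 1 from
      Units.ext s.2, inv_one, one_mul] at h2
    exact ⟨c, h2.symm⟩
  · rintro ⟨u, hu⟩
    obtain ⟨g', hg'⟩ : ∃ g', g' = (Matrix.GeneralLinearGroup.scalar (Fin n) u)⁻¹ * g := ⟨_, rfl⟩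
    have h1 : Matrix.GeneralLinearGroup.det g' = 1 := by
      rw [hg', map_mul, map_inv,
        show Matrix.GeneralLinearGroup.det (Matrix.GeneralLinearGroup.scalar (Fin n) u) = u ^ n from det_scalar_gl u,
        hu, inv_mul_cancel]
    let s : Matrix.SpecialLinearGroup (Fin n) F := ⟨g'.1, congrArg Units.val h1⟩
    refine ⟨QuotientGroup.mk s, ?_⟩
    rw [conj_mk_eq, show Matrix.SpecialLinearGroup.toGL s = g' from Units.ext rfl, hg', map_mul, map_inv,
      conjP_scalar, inv_one, one_mul]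

instance psl_inndiag_normal [Fintype F] [Fact (2 ≤ n)] : (conjP (n := n) (F := F)).range.Normal := by
  refine ⟨fun h hh α => ?_⟩
  obtain ⟨d, rfl⟩ := hh
  obtain ⟨g, σ, γ, hγ, rfl⟩ := exists_decomp (Fact.out : 2 ≤ n) α
  have key : ∀ d, conjP g * frobP σ * conjP d * (conjP g * frobP σ)⁻¹ ∈ (conjP (n := n) (F := F)).range := fun d =>
    ⟨g * Matrix.GeneralLinearGroup.map (σ : F →+* F) d * g⁻¹, by
      rw [map_mul, map_mul, map_inv,
        show conjP g * frobP σ * conjP d * (conjP g * frobP σ)⁻¹ =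
          conjP g * (frobP σ * conjP d) * (frobP σ)⁻¹ * (conjP g)⁻¹ by group, frobP_conjP]
      group⟩
  rcases hγ with rfl | ⟨-, rfl⟩
  · simpa [mul_one] using key d
  · rw [show conjP g * frobP σ * itP * conjP d * (conjP g * frobP σ * itP)⁻¹ =
      conjP g * frobP σ * (itP * conjP d) * itP⁻¹ * (conjP g * frobP σ)⁻¹ by group, itP_conjP, itP_inv,
      mul_assoc (conjP g * frobP σ), mul_assoc (conjP (itGL d)), itP_mul_itP, mul_one]
    exact key _

theorem psl_inn_le : Cfsg.Inn PSLn ≤ (conjP (n := n) (F := F)).range := by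
  rintro _ ⟨k, rfl⟩
  obtain ⟨s, rfl⟩ := QuotientGroup.mk_surjective k
  exact ⟨_, (conj_mk_eq s).symm⟩

theorem psl_out [Fintype F] {T : Type*} [Group T] (hn : 2 ≤ n)
    (ψ : letI : Fact (2 ≤ n) := ⟨hn⟩; T →* MulAut PSLn ⧸ (conjP (n := n) (F := F)).range)
    (hψ : Function.Bijective ψ) :
    ∃ φ : Cfsg.Out PSLn →* T, Function.Surjective φ ∧ IsCyclic φ.ker ∧
      Nat.card φ.ker = (Fintype.card F - 1).gcd n := by
  haveI : Fact (2 ≤ n) := ⟨hn⟩
  rw [← Nat.card_eq_fintype_card, ← Nat.card_units]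
  let i0 : Fin n := ⟨0, by omega⟩
  refine out_structure (conjP (n := n) (F := F)).range psl_inn_le (conjP.comp (diagOne i0)) (fun c => ⟨_, rfl⟩) ?_ n
    (fun c => ?_) ψ hψ
  · rintro _ ⟨g, rfl⟩
    refine ⟨Matrix.GeneralLinearGroup.det g, ?_⟩
    rw [MonoidHom.comp_apply, ← map_inv, ← map_mul, psl_conjP_mem_Inn hn]
    exact ⟨1, by rw [one_pow, map_mul, map_inv, det_diagOne, mul_inv_cancel]⟩
  · rw [MonoidHom.comp_apply, psl_conjP_mem_Inn hn, det_diagOne]

theorem psl_out_two [Fintype F] {p f : ℕ} [Fact p.Prime] (hF : Fintype.card F = p ^ f) :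
    ∃ φ : Cfsg.Out (Matrix.ProjectiveSpecialLinearGroup (Fin 2) F) →* Multiplicative (ZMod f),
      Function.Surjective φ ∧ IsCyclic φ.ker ∧ Nat.card φ.ker = Nat.gcd 2 (p ^ f - 1) := by
  haveI : Fact (2 ≤ 2) := ⟨le_rfl⟩
  let q2 := QuotientGroup.mk' (conjP (n := 2) (F := F)).range
  let ψ : (F ≃+* F) →* MulAut (Matrix.ProjectiveSpecialLinearGroup (Fin 2) F) ⧸ (conjP (n := 2) (F := F)).range :=
    q2.comp (frobHom (n := 2))
  have hψ : Function.Bijective ψ := by
    refine ⟨(injective_iff_map_eq_one ψ).2 fun σ h => ?_, fun y => ?_⟩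
    · obtain ⟨g, hg⟩ := (QuotientGroup.eq_one_iff _).1 h
      rw [frobHom_apply] at hg
      exact (scalar_of_conj_frob_eq_one le_rfl (g := g⁻¹) (σ := σ)
        (by rw [map_inv, hg, inv_mul_cancel])).1
    · obtain ⟨β, rfl⟩ := QuotientGroup.mk_surjective y
      obtain ⟨g, σ, h⟩ := exists_decomp_two β
      refine ⟨σ, ?_⟩
      have h1 : (QuotientGroup.mk (conjP g) : MulAut (Matrix.ProjectiveSpecialLinearGroup (Fin 2) F) ⧸
          (conjP (n := 2) (F := F)).range) = 1 := (QuotientGroup.eq_one_iff _).2 ⟨g, rfl⟩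
      show (QuotientGroup.mk (frobP σ) : _ ⧸ (conjP (n := 2) (F := F)).range) = QuotientGroup.mk β
      rw [h, QuotientGroup.mk_mul, h1, one_mul]
  obtain ⟨e⟩ := aut_cyclic (F := F) hF
  obtain ⟨φ, h1, h2, h3⟩ := psl_out le_rfl (ψ.comp e.symm.toMonoidHom) (hψ.comp e.symm.bijective)
  exact ⟨φ, h1, h2, by rw [h3, hF, Nat.gcd_comm]⟩

theorem psl_out_ge [Fintype F] {p f : ℕ} [Fact p.Prime] (hF : Fintype.card F = p ^ f) (hn : 3 ≤ n) :
    ∃ φ : Cfsg.Out PSLn →* Multiplicative (ZMod f × ZMod 2),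
      Function.Surjective φ ∧ IsCyclic φ.ker ∧ Nat.card φ.ker = Nat.gcd n (p ^ f - 1) := by
  haveI : Fact (2 ≤ n) := ⟨by omega⟩
  let qn := QuotientGroup.mk' (conjP (n := n) (F := F)).range
  let a : MulAut PSLn ⧸ (conjP (n := n) (F := F)).range := qn itP
  have ha : a * a = 1 := by rw [← map_mul, itP_mul_itP, map_one]
  let ψ : (F ≃+* F) × Multiplicative (ZMod 2) →* MulAut PSLn ⧸ (conjP (n := n) (F := F)).range :=
    MonoidHom.noncommCoprod (qn.comp (frobHom (n := n))) (twoHom a ha) fun σ x => by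
      show Commute (qn (frobP σ)) (if x = 1 then 1 else a)
      split_ifs
      · exact Commute.one_right _
      · exact (show Commute (frobP σ : MulAut PSLn) itP from frobP_itP σ).map qn
  have hψ : Function.Bijective ψ := by
    refine ⟨(injective_iff_map_eq_one ψ).2 fun ⟨σ, x⟩ h => ?_, fun y => ?_⟩
    · rw [MonoidHom.noncommCoprod_apply] at h
      change qn (frobP σ) * (if x = 1 then 1 else a) = 1 at h
      split_ifs at h with hx
      · subst hx
        rw [mul_one] at h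
        obtain ⟨g, hg⟩ := (QuotientGroup.eq_one_iff _).1 h
        exact Prod.ext (scalar_of_conj_frob_eq_one (by omega) (g := g⁻¹) (σ := σ)
          (by rw [map_inv, hg, inv_mul_cancel])).1 rfl
      · exfalso
        have h' : qn (frobP σ * itP) = 1 := by rw [map_mul]; exact h
        obtain ⟨g, hg⟩ := (QuotientGroup.eq_one_iff _).1 h'
        refine conj_frob_ne_itP hn g⁻¹ σ ?_
        rw [map_inv, hg, _root_.mul_inv_rev, itP_inv, mul_assoc, inv_mul_cancel, mul_one]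
    · obtain ⟨β, rfl⟩ := QuotientGroup.mk_surjective y
      obtain ⟨g, σ, γ, hγ, h⟩ := exists_decomp (by omega : 2 ≤ n) β
      have h1 : qn (conjP g) = 1 := (QuotientGroup.eq_one_iff _).2 ⟨g, rfl⟩
      rcases hγ with rfl | ⟨-, rfl⟩
      · refine ⟨(σ, 1), ?_⟩
        show ψ (σ, 1) = qn β
        rw [MonoidHom.noncommCoprod_apply, map_one, mul_one, h, mul_one, map_mul, h1, one_mul]
        rfl
      · refine ⟨(σ, Multiplicative.ofAdd 1), ?_⟩
        show ψ (σ, Multiplicative.ofAdd 1) = qn β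
        have h2 : twoHom a ha (Multiplicative.ofAdd 1) = a := by
          have h3 : (Multiplicative.ofAdd 1 : Multiplicative (ZMod 2)) ≠ 1 := by decide
          simp [twoHom, h3]
        rw [MonoidHom.noncommCoprod_apply, h2, h, map_mul, map_mul, h1, one_mul]
        rfl
  obtain ⟨e⟩ := aut_cyclic (F := F) hF
  let e2 : (F ≃+* F) × Multiplicative (ZMod 2) ≃* Multiplicative (ZMod f × ZMod 2) :=
    (MulEquiv.prodCongr e (MulEquiv.refl _)).trans (MulEquiv.prodMultiplicative (ZMod f) (ZMod 2)).symm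
  obtain ⟨φ, h1, h2, h3⟩ := psl_out (by omega) (ψ.comp e2.symm.toMonoidHom) (hψ.comp e2.symm.bijective)
  exact ⟨φ, h1, h2, by rw [h3, hF, Nat.gcd_comm]⟩

end PSL

section PSU

open Cfsg.Lib.Classical.PSUAut

variable {F : Type*} [Field F] [Fintype F] {n q : ℕ}

theorem psu_out {p f : ℕ} [Fact p.Prime] (hq : q = p ^ f) (hF : Fintype.card F = q ^ 2) (hn : 3 ≤ n)
    (h32 : ¬ (n = 3 ∧ q = 2)) :
    ∃ φ : Cfsg.Out (Cfsg.PSU n F q) →* Multiplicative (ZMod (2 * f)),
      Function.Surjective φ ∧ IsCyclic φ.ker ∧ Nat.card φ.ker = Nat.gcd n (q + 1) := by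
  obtain ⟨σ, hc⟩ := exists_ctx n hF
  have hF' : Fintype.card F = p ^ (2 * f) := by rw [hF, hq, ← pow_mul, mul_comm]
  haveI : CharP F p := charP_of_card hF'
  have hq3 : n = 3 → q ≠ 2 := fun h3 h2 => h32 ⟨h3, h2⟩
  haveI : (conjP (n := n) (q := q) (F := F)).range.Normal := ⟨fun h hh α => by
    have := inndiag_conj (p := p) hc hn hq3 α h (inndiag_eq (n := n) (q := q) (F := F) ▸ hh)
    rwa [inndiag_eq] at this⟩
  let qn := QuotientGroup.mk' (conjP (n := n) (q := q) (F := F)).range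
  let ψ : (F ≃+* F) →* MulAut (Cfsg.PSU n F q) ⧸ (conjP (n := n) (q := q) (F := F)).range :=
    qn.comp (PSUAut.frobHom (n := n) (q := q))
  have hψ : Function.Bijective ψ := by
    refine ⟨(injective_iff_map_eq_one ψ).2 fun θ h => ?_, fun y => ?_⟩
    · obtain ⟨g, hg⟩ := (QuotientGroup.eq_one_iff _).1 h
      exact (scalar_of_eq_one hc hn (g := g⁻¹) (θ := θ) (by
        rw [map_inv, hg]; exact inv_mul_cancel _)).1
    · obtain ⟨β, rfl⟩ := QuotientGroup.mk_surjective y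
      obtain ⟨g, θ, h⟩ := PSUAut.exists_decomp (p := p) hc hn hq3 β
      refine ⟨θ, ?_⟩
      show qn (PSUAut.frobP θ) = qn β
      rw [h, map_mul, show qn (PSUAut.conjP g) = 1 from (QuotientGroup.eq_one_iff _).2 ⟨g, rfl⟩, one_mul]
  let U : Subgroup Fˣ := (powMonoidHom (q + 1) : Fˣ →* Fˣ).ker
  have hU : ∀ u : Fˣ, u ∈ U ↔ (u : F) * σ u = 1 := fun u => by
    rw [MonoidHom.mem_ker, powMonoidHom_apply, hc.pow, ← pow_succ', ← Units.val_pow_eq_pow_val, Units.val_eq_one]
  let i0 : Fin n := ⟨0, by omega⟩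
  let DU : U →* Cfsg.GU n F q := ((diagOne i0).comp U.subtype).codRestrict _ fun u => fun x y => by
    show Cfsg.hermForm n F q ((diagOne i0 u.1).1 *ᵥ x) ((diagOne i0 u.1).1 *ᵥ y) = _
    rw [coe_diagOne]
    simp only [Cfsg.hermForm, mulVec_diagonal, mul_pow]
    refine Finset.sum_congr rfl fun i _ => ?_
    by_cases hi : i = i0
    · subst hi
      simp only [Function.update_self]
      have h1 := (hU _).1 u.2
      rw [hc.pow] at h1
      linear_combination (x i0 * y i0 ^ q) * h1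
    · simp [hi]
  have hdt : ∀ u, dt (DU u) = u.1 := fun u => det_diagOne i0 u.1
  obtain ⟨e⟩ := aut_cyclic (F := F) hF'
  obtain ⟨φ, h1, h2, h3⟩ := out_structure (conjP (n := n) (q := q) (F := F)).range inn_le
    (PSUAut.conjP.comp DU) (fun c => ⟨_, rfl⟩) (fun i hi => by
      obtain ⟨g, rfl⟩ := hi
      refine ⟨⟨dt g, (hU _).2 (dt_norm hc g)⟩, ?_⟩
      · rw [MonoidHom.comp_apply, ← map_inv, ← map_mul, conjP_mem_Inn_iff hc hn]
        exact ⟨1, by simp, by rw [one_pow, map_mul, map_inv, hdt, mul_inv_cancel]⟩) n (fun c => by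
      rw [MonoidHom.comp_apply, conjP_mem_Inn_iff hc hn, hdt]
      exact ⟨fun ⟨u, hu, h⟩ => ⟨⟨u, (hU _).2 hu⟩, Subtype.ext h.symm⟩,
        fun ⟨u, h⟩ => ⟨u.1, (hU _).1 u.2, (congrArg Subtype.val h).symm⟩⟩)
    (ψ.comp e.symm.toMonoidHom) (hψ.comp e.symm.bijective)
  refine ⟨φ, h1, h2, ?_⟩
  rw [h3, show Nat.card U = q + 1 from Cfsg.Lib.Classical.UnitaryCentre.card_norm_one hF, Nat.gcd_comm]

end PSU

end Cfsg.Lib.Classical.OutAut
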