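/-
The outer automorphism group of `PSp_4(2^f)` is cyclic of order `2f`.
-/
import Mathlib
import Cfsg.Agent.Lib.Classical.OutAut.Basic
import Cfsg.Agent.Lib.Classical.PSpAut.Exceptional

set_option autoImplicit false

open scoped Classical

namespace Cfsg.Lib.Classical.OutAut

open Matrix
open Cfsg.Lib.Classical (sympBilin)
open Cfsg.Lib.Classical.PSpAut
open scoped MatrixGroups

variable {F : Type*} [Field F] [CharP F 2]

set_option quotPrecheck false in
local notation "V2" => (Fin 2 ⊕ Fin 2 → F)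
set_option quotPrecheck false in
local notation "Sp4" => (↥(Matrix.symplecticGroup (Fin 2) F))
set_option quotPrecheck false in
local notation "PS2" => (Cfsg.PSp 2 F)

set_option maxHeartbeats 2000000 in
theorem phiM_phiM_tS (v : V2) (c : F) (hv : v = eB 0 ∨ v = eB 1 ∨ v = fB 0 ∨ v = fB 1 ∨ v = eB 0 + eB 1) :
    phiM (phiM (tS v c).1) = (tS v c).1.map fun x => x ^ 2 := by
  have hent : ∀ i j, (tS v c).1 i j = (1 : Matrix (Fin 2 ⊕ Fin 2) (Fin 2 ⊕ Fin 2) F) i j +
      c * sympBilin F 2 (Pi.single j 1) v * v i := fun i j => by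
    have h := congrFun (tS_mulVec v c (Pi.single j 1)) i
    rw [mulVec_single_one, col_apply] at h
    rw [h, Pi.add_apply, Pi.smul_apply, smul_eq_mul]
    by_cases hij : i = j <;> simp [Matrix.one_apply, hij]
  ext a b
  rcases hv with rfl | rfl | rfl | rfl | rfl <;>
    rcases a with a | a <;> rcases b with b | b <;> fin_cases a <;> fin_cases b <;>
    simp [phiM, pr, hent, Matrix.one_apply, omega_e, omega_f, eB, fB, map_add, CharTwo.neg_eq,
      CharTwo.add_self_eq_zero, CharTwo.sub_eq_add, pow_two]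

variable [Fintype F]

theorem phi_phi (A : Sp4) : phi (phi A) = frobSp (frobeniusEquiv F 2) A := by
  haveI : Fact (Nat.Prime 2) := ⟨Nat.prime_two⟩
  refine Subtype.ext ?_
  let φ : Matrix (Fin 2 ⊕ Fin 2) (Fin 2 ⊕ Fin 2) F →+* Matrix (Fin 2 ⊕ Fin 2) (Fin 2 ⊕ Fin 2) F :=
    (frobenius F 2).mapMatrix
  let H : Subgroup Sp4 :=
    { carrier := {A | phiM (phiM A.1) = φ A.1}
      one_mem' := by
        show phiM (phiM ((1 : Sp4) : Matrix (Fin 2 ⊕ Fin 2) (Fin 2 ⊕ Fin 2) F)) = φ 1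
        rw [OneMemClass.coe_one, phiM_one, phiM_one, map_one]
      mul_mem' := fun {a b} ha hb => by
        show phiM (phiM (a.1 * b.1)) = φ (a.1 * b.1)
        rw [phiM_mul, show phiM a.1 = (phi a).1 from rfl, show phiM b.1 = (phi b).1 from rfl, phiM_mul, map_mul,
          ← ha, ← hb]
        rfl
      inv_mem' := fun {a} ha => by
        show phiM (phiM (a⁻¹ : Sp4).1) = φ (a⁻¹ : Sp4).1
        have h1 : phiM (phiM (a⁻¹ : Sp4).1) * φ a.1 = 1 := by
          rw [← ha, show phiM (a⁻¹ : Sp4).1 = (phi a⁻¹).1 from rfl, show phiM a.1 = (phi a).1 from rfl, ← phiM_mul,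
            show (phi a⁻¹).1 * (phi a).1 = 1 by
              rw [map_inv]; exact congrArg Subtype.val (inv_mul_cancel (phi a)), phiM_one]
        have h2 : φ a.1 * φ (a⁻¹ : Sp4).1 = 1 := by
          rw [← map_mul, show a.1 * (a⁻¹ : Sp4).1 = 1 from congrArg Subtype.val (mul_inv_cancel a), map_one]
        exact left_inv_eq_right_inv h1 h2 }
  have h := gen_top (m := 2) two_pos H (fun i c => by
      fin_cases i
      exacts [phiM_phiM_tS _ c (Or.inl rfl), phiM_phiM_tS _ c (Or.inr (Or.inl rfl))])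
    (fun i c => by
      fin_cases i
      exacts [phiM_phiM_tS _ c (Or.inr (Or.inr (Or.inl rfl))),
        phiM_phiM_tS _ c (Or.inr (Or.inr (Or.inr (Or.inl rfl))))])
    (fun j hj c => by
      fin_cases j
      · exact absurd rfl hj
      · exact phiM_phiM_tS _ c (Or.inr (Or.inr (Or.inr (Or.inr rfl)))))
  exact (h ▸ Subgroup.mem_top A : A ∈ H)

theorem exists_gamma_sq :
    ∃ γ : MulAut PS2, γ * γ = frobP (frobeniusEquiv F 2) ∧
      γ (P (eB 0 : V2) 1) = QuotientGroup.mk (uQ (eB 0) (eB 1)) := by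
  have hinj : Function.Injective (phi (F := F)) := fun a b h => by
    have h1 := congrArg phi h
    rw [phi_phi, phi_phi] at h1
    exact (frobSp (frobeniusEquiv F 2)).injective h1
  let ψ : PS2 →* PS2 := ((eC (F := F)).toMonoidHom.comp phi).comp (eC (F := F)).symm.toMonoidHom
  have hval : ∀ A, ψ (QuotientGroup.mk A) = QuotientGroup.mk (phi A) := fun A => by
    show eC (phi (eC.symm (eC A))) = _
    rw [MulEquiv.symm_apply_apply]
    rfl
  have hψ : Function.Injective ψ := (eC (F := F)).injective.comp (hinj.comp (eC (F := F)).symm.injective)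
  refine ⟨MulEquiv.ofBijective ψ (Finite.injective_iff_bijective.1 hψ), MulEquiv.ext fun x => ?_, ?_⟩
  · induction x using QuotientGroup.induction_on with
    | H A =>
      show ψ (ψ (QuotientGroup.mk A)) = _
      rw [hval, hval, phi_phi, frobP_mk]
  · show ψ (P (eB 0 : V2) 1) = _
    rw [P, hval, phi_tS]

theorem psp_four_out {f : ℕ} (hF : Fintype.card F = 2 ^ f) :
    IsCyclic (Cfsg.Out PS2) ∧ Nat.card (Cfsg.Out PS2) = 2 * f := by
  haveI : Fact (Nat.Prime 2) := ⟨Nat.prime_two⟩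
  obtain ⟨γ, hγ2, hγ⟩ := exists_gamma_sq (F := F)
  obtain ⟨θ, hθ⟩ : ∃ θ, θ = frobeniusEquiv F 2 := ⟨_, rfl⟩
  rw [← hθ] at hγ2
  have hpow : ∀ (k : ℕ) (x : F), (θ ^ k) x = x ^ (2 ^ k) := by
    intro k
    induction k with
    | zero => intro x; simp
    | succ k ih =>
      intro x
      rw [pow_succ', RingAut.mul_apply, ih, hθ, frobeniusEquiv_apply, frobenius_def, ← pow_mul, pow_succ]
  have hcardAut : Nat.card (F ≃+* F) = f := Cfsg.Lib.Classical.FinField.card_aut hF
  have hf : 0 < f := hcardAut ▸ Nat.card_pos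
  have hθf : orderOf θ = f := by
    refine le_antisymm (hcardAut ▸ orderOf_le_card) ?_
    obtain ⟨g, hg⟩ := IsCyclic.exists_generator (α := Fˣ)
    have h1 := hpow (orderOf θ) (g : F)
    rw [pow_orderOf_eq_one, RingAut.one_apply] at h1
    have hk := orderOf_pos θ
    have h2 : g ^ (2 ^ orderOf θ - 1) = 1 := by
      refine mul_right_cancel (b := g) ?_
      rw [← pow_succ, Nat.sub_add_cancel Nat.one_le_two_pow, one_mul]
      exact Units.ext (by rw [Units.val_pow_eq_pow_val, ← h1])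
    have h3 := orderOf_le_of_pow_eq_one (by have := Nat.one_lt_two_pow hk.ne'; omega) h2
    rw [orderOf_eq_card_of_forall_mem_zpowers hg, Nat.card_units, Nat.card_eq_fintype_card, hF] at h3
    have h4 : 2 ^ f ≤ 2 ^ orderOf θ := by
      have := Nat.one_le_two_pow (n := orderOf θ)
      have := Nat.one_le_two_pow (n := f)
      omega
    exact (Nat.pow_le_pow_iff_right one_lt_two).1 h4
  have hgen : ∀ σ : F ≃+* F, ∃ k : ℕ, θ ^ k = σ := fun σ => by
    have hz : σ ∈ Subgroup.zpowers θ := by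
      rw [Subgroup.eq_top_of_card_eq (Subgroup.zpowers θ) (by rw [Nat.card_zpowers, hθf, hcardAut])]
      exact Subgroup.mem_top σ
    exact (Submonoid.mem_powers_iff _ _).1 (mem_powers_iff_mem_zpowers.2 hz)
  have htv0 : IsTv (P (eB 0 : V2) (1 : F)) := ⟨_, 1, by simp [eB], one_ne_zero, rfl⟩
  have hsh : IsShort (γ (P (eB 0 : V2) 1)) := ⟨eB 0, eB 1, by simp [eB], by simp [omega_e, eB], fun h => by
    obtain ⟨r, hr⟩ := Submodule.mem_span_singleton.1 h
    have := congrFun hr (Sum.inl 1)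
    simp [eB] at this, hγ⟩
  have htvconj : ∀ {y : PS2}, IsTv y → ∀ g, IsTv (g * y * g⁻¹) := by
    rintro _ ⟨w, d, hw, hd, rfl⟩ g
    obtain ⟨g, rfl⟩ := QuotientGroup.mk_surjective g
    exact ⟨g.1 *ᵥ w, d, PSpAut.mulVec_ne_zero g hw, hd, by rw [P, P, ← conj_tS]; rfl⟩
  have hsep : ∀ {y : PS2}, IsShort y → ¬ IsTv y := by
    rintro _ ⟨a, b, ha, hab, hb, rfl⟩ ⟨w, d, -, -, h⟩
    exact exotic_ne_P 2 le_rfl hab ha hb d h
  have hpres : ∀ (g : Cfsg.GSp 2 F) (σ : F ≃+* F), γ ≠ conjP g * frobP σ := by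
    intro g σ e
    refine hsep hsh ?_
    rw [e, MulAut.mul_apply, frobP_P, conjP_P g (mult two_pos g).ne_zero (mult_spec two_pos g)]
    exact ⟨_, _, Cfsg.Lib.Classical.mulVec_ne_zero g.1 (fun h => by
      have := congrFun h (Sum.inl 0); simp [eB] at this), by simp, rfl⟩
  have hall : ∀ β : MulAut PS2, ∃ (g : Cfsg.GSp 2 F) (σ : F ≃+* F),
      β = conjP g * frobP σ ∨ β = γ * (conjP g * frobP σ) := by
    intro β
    rcases image_cases (Fintype.one_lt_card) β htv0 with hb | hb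
    · obtain ⟨g, σ, rfl⟩ := exists_decomp_of_image le_rfl β fun x hx => image_of_tv (fun y hy => by
        obtain ⟨k, rfl⟩ := tv_conj htv0 hy
        rw [map_mul, map_mul, map_inv]
        exact htvconj hb _) hx
      exact ⟨g, σ, Or.inl rfl⟩
    · obtain ⟨g, σ, hg⟩ := exists_decomp_of_image le_rfl (γ⁻¹ * β) fun x hx => image_of_tv (fun y hy => by
        obtain ⟨k, rfl⟩ := tv_conj htv0 hy
        obtain ⟨k', hk'⟩ := short_conj hsh hb
        rw [map_mul, map_mul, map_inv]
        simp only [MulAut.mul_apply]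
        rw [hk', map_mul, map_mul, map_inv]
        rw [show (γ⁻¹ : MulAut PS2) (γ (P (eB 0 : V2) 1)) = P (eB 0 : V2) 1 from γ.symm_apply_apply _]
        exact htvconj (htvconj htv0 _) _) hx
      exact ⟨g, σ, Or.inr (by rw [← hg, mul_inv_cancel_left])⟩
  let π := QuotientGroup.mk' (Cfsg.Inn PS2)
  have hconj : ∀ g, π (conjP g) = 1 := fun g => (QuotientGroup.eq_one_iff _).2 (by
    rw [← inndiag_eq_Inn le_rfl, inndiag_eq]; exact ⟨g, rfl⟩)
  have hfr : ∀ k : ℕ, π (frobP (θ ^ k)) = π γ ^ (2 * k) := fun k => by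
    rw [show (frobP (θ ^ k) : MulAut PS2) = frobP θ ^ k from map_pow (frobHom (m := 2)) θ k, map_pow, ← hγ2,
      map_mul, ← pow_two, ← pow_mul]
  have hgenOut : ∀ x : Cfsg.Out PS2, x ∈ Subgroup.zpowers (π γ) := by
    intro x
    obtain ⟨β, rfl⟩ := QuotientGroup.mk'_surjective (Cfsg.Inn PS2) x
    obtain ⟨g, σ, rfl | rfl⟩ := hall β <;> obtain ⟨k, rfl⟩ := hgen σ
    · rw [map_mul, hconj, one_mul, hfr]
      exact Subgroup.npow_mem_zpowers _ _
    · rw [map_mul, map_mul, hconj, one_mul, hfr, ← pow_succ']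
      exact Subgroup.npow_mem_zpowers _ _
  have hord : orderOf (π γ) = 2 * f := by
    refine Nat.dvd_antisymm (orderOf_dvd_of_pow_eq_one ?_) ?_
    · rw [← hfr, show θ ^ f = 1 by rw [← hθf, pow_orderOf_eq_one], frobP_one, map_one]
    · obtain ⟨d, hd⟩ : ∃ d, d = orderOf (π γ) := ⟨_, rfl⟩
      have h1 : π γ ^ d = 1 := hd ▸ pow_orderOf_eq_one _
      rw [← hd]
      rcases Nat.even_or_odd d with ⟨k, hk⟩ | ⟨k, hk⟩
      · rw [hk, ← two_mul, ← hfr] at h1
        obtain ⟨A, hA⟩ := QuotientGroup.mk_surjective ((QuotientGroup.eq_one_iff _).1 h1).choose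
        have h2 := ((QuotientGroup.eq_one_iff _).1 h1).choose_spec
        rw [← hA, conj_mk] at h2
        have h3 := (scalar_of_eq_one le_rfl (g := (ofSp A)⁻¹) (σ := θ ^ k) (by
          rw [map_inv, h2, inv_mul_cancel])).1
        obtain ⟨j, hj⟩ := orderOf_dvd_of_pow_eq_one h3
        rw [hθf] at hj
        exact ⟨j, by rw [hk, hj]; ring⟩
      · exfalso
        rw [hk, pow_succ, ← hfr, ← map_mul] at h1
        obtain ⟨y, hy⟩ := (QuotientGroup.eq_one_iff _).1 h1
        obtain ⟨A, rfl⟩ := QuotientGroup.mk_surjective y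
        rw [conj_mk] at hy
        refine hpres (mapG (θ ^ k)⁻¹ (ofSp A)) (θ ^ k)⁻¹ ?_
        rw [← frobP_conjP, hy, ← mul_assoc, frobP_mul, inv_mul_cancel, frobP_one, one_mul]
  exact ⟨⟨⟨π γ, hgenOut⟩⟩, by rw [← hord]; exact (orderOf_eq_card_of_forall_mem_zpowers hgenOut).symm⟩

end Cfsg.Lib.Classical.OutAut
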